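import Cfsg.Agent.Lib.Helper10.Invol
import Cfsg.Agent.S1184
import Cfsg.Agent.S1185

set_option autoImplicit false
open Cfsg

namespace Cfsg.Agent.Lib.Helper10

universe u

section bender

variable {G : Type u} [Group G] [Finite G]

/-- The conjugates of `z` commuting with `r`. -/
abbrev ConjFix (z r : G) : Type u := {t : G // (∃ g : G, g * z * g⁻¹ = t) ∧ Commute t r}

theorem exists_mid {z : G} (hz : Cfsg.IsIsolatedInvolution z) {s : G} (hss : s * s = 1) {t : G}
    (ht : ∃ g : G, g * z * g⁻¹ = t) :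
    ∃ u : G, (∃ g : G, g * z * g⁻¹ = u) ∧ Commute u s ∧ u * t * u⁻¹ = s * t * s⁻¹ := by
  obtain ⟨g, hg⟩ := ht
  have hti : Cfsg.IsIsolatedInvolution t := hg ▸ isolated_conj hz g
  have htt : t * t = 1 := hg ▸ conj_mul_self (isolated_mul_self hz) g
  have hsinv : s⁻¹ = s := inv_eq_of_mul_eq_one_left hss
  have htinv : t⁻¹ = t := inv_eq_of_mul_eq_one_left htt
  have ht't' : (s * t * s⁻¹) * (s * t * s⁻¹) = 1 := conj_mul_self htt s
  obtain ⟨j, hj, hord⟩ := isolated_exists_pow_conj hti s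
  obtain ⟨d, hd⟩ : ∃ d : G, d = t * (s * t * s⁻¹) := ⟨_, rfl⟩
  rw [← hd] at hj hord
  have hdpow : d ^ (2 * j + 1) = 1 := by rw [← hord]; exact pow_orderOf_eq_one d
  have htd : ∀ k : ℕ, t * d ^ k = (d ^ k)⁻¹ * t := by
    intro k; rw [hd]; exact invol_pow_semiconj htt ht't' k
  have htd' : ∀ k : ℕ, t * (d ^ k)⁻¹ = d ^ k * t := by
    intro k
    have h1 : d ^ k * (t * d ^ k) = t := by rw [htd k, mul_inv_cancel_left]
    calc t * (d ^ k)⁻¹ = d ^ k * (t * d ^ k) * (d ^ k)⁻¹ := by rw [h1]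
      _ = d ^ k * t := by group
  have hsd1 : SemiconjBy s d d⁻¹ := by
    show s * d = d⁻¹ * s
    rw [hd]
    simp only [mul_inv_rev, inv_inv, hsinv, htinv, mul_assoc]
  have hsd : ∀ k : ℕ, s * d ^ k = (d ^ k)⁻¹ * s := by
    intro k
    have h1 := hsd1.pow_right k
    rw [inv_pow] at h1
    exact h1
  have hdj : d ^ j = (d ^ (j + 1))⁻¹ := by
    apply eq_inv_of_mul_eq_one_left
    rw [← pow_add]
    have e : j + (j + 1) = 2 * j + 1 := by ring
    rw [e]; exact hdpow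
  refine ⟨d ^ j * t, ?_, ?_, ?_⟩
  · refine ⟨d ^ (j * (j + 1)) * g, ?_⟩
    have h1 : d ^ (j * (j + 1)) * d ^ (j * (j + 1)) = d ^ j := by
      rw [← pow_add]
      have e : j * (j + 1) + j * (j + 1) = (2 * j + 1) * j + j := by ring
      rw [e, pow_add, pow_mul, hdpow, one_pow, one_mul]
    calc d ^ (j * (j + 1)) * g * z * (d ^ (j * (j + 1)) * g)⁻¹
        = d ^ (j * (j + 1)) * ((g * z * g⁻¹) * (d ^ (j * (j + 1)))⁻¹) := by group
      _ = d ^ (j * (j + 1)) * (t * (d ^ (j * (j + 1)))⁻¹) := by rw [hg]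
      _ = d ^ (j * (j + 1)) * (d ^ (j * (j + 1)) * t) := by rw [htd']
      _ = d ^ j * t := by rw [← mul_assoc, h1]
  · show d ^ j * t * s = s * (d ^ j * t)
    have h1 : s * t = t * d * s := by
      rw [hd]
      simp only [hsinv, mul_assoc]
      rw [← mul_assoc t t, htt, one_mul, hss, mul_one]
    have h2 : t * d = d⁻¹ * t := by
      have := htd 1
      rwa [pow_one] at this
    calc d ^ j * t * s = (d ^ (j + 1))⁻¹ * t * s := by rw [← hdj]
      _ = (d ^ j)⁻¹ * (d⁻¹ * t) * s := by rw [pow_succ]; group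
      _ = (d ^ j)⁻¹ * (t * d) * s := by rw [h2]
      _ = (d ^ j)⁻¹ * (t * d * s) := by group
      _ = (d ^ j)⁻¹ * (s * t) := by rw [h1]
      _ = (d ^ j)⁻¹ * s * t := by group
      _ = s * d ^ j * t := by rw [hsd j]
      _ = s * (d ^ j * t) := by group
  · calc d ^ j * t * t * (d ^ j * t)⁻¹ = d ^ j * t * (d ^ j)⁻¹ := by group
      _ = s * t * s⁻¹ := hj

theorem mid_unique {z : G} (hz : Cfsg.IsIsolatedInvolution z) {t u u' : G}
    (ht : ∃ g : G, g * z * g⁻¹ = t) (hu : ∃ g : G, g * z * g⁻¹ = u)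
    (hu' : ∃ g : G, g * z * g⁻¹ = u') (h : u * t * u⁻¹ = u' * t * u'⁻¹) : u = u' := by
  obtain ⟨g0, hg0⟩ := ht
  obtain ⟨g1, hg1⟩ := hu
  obtain ⟨g2, hg2⟩ := hu'
  by_contra hne
  have hti : Cfsg.IsIsolatedInvolution t := hg0 ▸ isolated_conj hz g0
  have hzz := isolated_mul_self hz
  have huu : u * u = 1 := hg1 ▸ conj_mul_self hzz g1
  have hu'u' : u' * u' = 1 := hg2 ▸ conj_mul_self hzz g2
  have e1 : u = (g1 * g0⁻¹) * t * (g1 * g0⁻¹)⁻¹ := by rw [← hg1, ← hg0]; group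
  have e2 : u' = (g2 * g0⁻¹) * t * (g2 * g0⁻¹)⁻¹ := by rw [← hg2, ← hg0]; group
  have h1 := Cfsg.Agent.S1184.result t hti (g1 * g0⁻¹) (g2 * g0⁻¹) (by rw [← e1, ← e2]; exact hne)
  rw [← e1, ← e2] at h1
  apply h1
  rw [inv_eq_of_mul_eq_one_left huu, inv_eq_of_mul_eq_one_left hu'u'] at h
  have e3 : u * (u' * t * u') * u' = (u * u') * t * (u' * u') := by group
  have e4 : u * (u * t * u) * u' = (u * u) * t * (u * u') := by group
  show (u * u') * t = t * (u * u')
  calc (u * u') * t = (u * u') * t * (u' * u') := by rw [hu'u', mul_one]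
    _ = u * (u' * t * u') * u' := e3.symm
    _ = u * (u * t * u) * u' := by rw [h]
    _ = (u * u) * t * (u * u') := e4
    _ = t * (u * u') := by rw [huu, one_mul]

theorem conjFix_mem_conj {z s u t h : G} (hss : s * s = 1) (hhs : Commute h s)
    (hhu : h * z * h⁻¹ = u) (hut : u * t * u⁻¹ = s * t * s⁻¹) (ht : ∃ g : G, g * z * g⁻¹ = t) :
    (∃ g : G, g * z * g⁻¹ = h⁻¹ * t * h) ∧ Commute (h⁻¹ * t * h) (s * z) := by
  have hsinv : s⁻¹ = s := inv_eq_of_mul_eq_one_left hss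
  refine ⟨?_, ?_⟩
  · obtain ⟨g, hg⟩ := ht
    exact ⟨h⁻¹ * g, by rw [← hg]; group⟩
  · have h1 : (s * u) * t = t * (s * u) := by
      have h2 : u * t = s * t * s⁻¹ * u := by rw [← hut]; group
      calc (s * u) * t = s * (u * t) := by group
        _ = s * (s * t * s⁻¹ * u) := by rw [h2]
        _ = (s * s) * t * (s⁻¹ * u) := by group
        _ = t * (s * u) := by rw [hss, one_mul, hsinv]
    have e : s * z = h⁻¹ * (s * u) * h := by
      rw [← hhu]
      calc s * z = h⁻¹ * (h * s) * z := by group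
        _ = h⁻¹ * (s * h) * z := by rw [hhs.eq]
        _ = h⁻¹ * (s * (h * z * h⁻¹)) * h := by group
    show (h⁻¹ * t * h) * (s * z) = (s * z) * (h⁻¹ * t * h)
    rw [e]
    calc h⁻¹ * t * h * (h⁻¹ * (s * u) * h) = h⁻¹ * (t * (s * u)) * h := by group
      _ = h⁻¹ * ((s * u) * t) * h := by rw [h1]
      _ = h⁻¹ * (s * u) * h * (h⁻¹ * t * h) := by group

theorem conjFix_mid {z s u t' h : G} (hss : s * s = 1) (hhs : Commute h s)
    (hhu : h * z * h⁻¹ = u) (ht'1 : ∃ g : G, g * z * g⁻¹ = t') (ht'2 : Commute t' (s * z)) :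
    (∃ g : G, g * z * g⁻¹ = h * t' * h⁻¹) ∧
      u * (h * t' * h⁻¹) * u⁻¹ = s * (h * t' * h⁻¹) * s⁻¹ := by
  have hsinv : s⁻¹ = s := inv_eq_of_mul_eq_one_left hss
  refine ⟨?_, ?_⟩
  · obtain ⟨g, hg⟩ := ht'1
    exact ⟨h * g, by rw [← hg]; group⟩
  · have h0 : t' * (s * z) = (s * z) * t' := ht'2
    have e : s * u = h * (s * z) * h⁻¹ := by
      rw [← hhu]
      calc s * (h * z * h⁻¹) = (s * h) * z * h⁻¹ := by group
        _ = (h * s) * z * h⁻¹ := by rw [hhs.eq]
        _ = h * (s * z) * h⁻¹ := by group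
    have h1 : (s * u) * (h * t' * h⁻¹) = (h * t' * h⁻¹) * (s * u) := by
      rw [e]
      calc h * (s * z) * h⁻¹ * (h * t' * h⁻¹) = h * ((s * z) * t') * h⁻¹ := by group
        _ = h * (t' * (s * z)) * h⁻¹ := by rw [h0]
        _ = h * t' * h⁻¹ * (h * (s * z) * h⁻¹) := by group
    calc u * (h * t' * h⁻¹) * u⁻¹ = s⁻¹ * ((s * u) * (h * t' * h⁻¹)) * u⁻¹ := by group
      _ = s⁻¹ * ((h * t' * h⁻¹) * (s * u)) * u⁻¹ := by rw [h1]
      _ = s⁻¹ * (h * t' * h⁻¹) * s := by group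
      _ = s * (h * t' * h⁻¹) * s⁻¹ := by rw [hsinv]

theorem card_conjFix_one {z : G} (hz : Cfsg.IsIsolatedInvolution z) {s : G} (hss : s * s = 1)
    (hsz : Commute s z) :
    Nat.card (ConjFix z 1) = Nat.card (ConjFix z s) * Nat.card (ConjFix z (s * z)) := by
  classical
  have hE : ∀ t : ConjFix z 1, ∃ u : G, (∃ g : G, g * z * g⁻¹ = u) ∧ Commute u s ∧
      u * t.1 * u⁻¹ = s * t.1 * s⁻¹ := fun t => exists_mid hz hss t.2.1
  choose uf huf1 huf2 huf3 using hE
  have hH : ∀ u : ConjFix z s, ∃ h : G, Commute h s ∧ h * z * h⁻¹ = u.1 := by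
    intro u
    obtain ⟨g, hg⟩ := u.2.1
    have hzC : z ∈ Subgroup.centralizer ({s} : Set G) := by
      rw [Subgroup.mem_centralizer_iff]
      intro y hy
      rw [Set.mem_singleton_iff] at hy
      rw [hy]; exact hsz.eq
    have hgC : g * z * g⁻¹ ∈ Subgroup.centralizer ({s} : Set G) := by
      rw [hg, Subgroup.mem_centralizer_iff]
      intro y hy
      rw [Set.mem_singleton_iff] at hy
      rw [hy]; exact u.2.2.eq.symm
    obtain ⟨h, hh, hconj⟩ := isolated_conj_in_subgroup hz _ hzC g hgC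
    refine ⟨h, ?_, hconj.trans hg⟩
    exact ((Subgroup.mem_centralizer_iff.1 hh) s (Set.mem_singleton s)).symm
  choose hf hhf1 hhf2 using hH
  rw [← Nat.card_prod]
  apply Nat.card_congr
  exact
    { toFun := fun t => (⟨uf t, huf1 t, huf2 t⟩,
        ⟨(hf ⟨uf t, huf1 t, huf2 t⟩)⁻¹ * t.1 * hf ⟨uf t, huf1 t, huf2 t⟩,
          conjFix_mem_conj hss (hhf1 _) (hhf2 _) (huf3 t) t.2.1⟩)
      invFun := fun p => ⟨hf p.1 * p.2.1 * (hf p.1)⁻¹,
        (conjFix_mid hss (hhf1 p.1) (hhf2 p.1) p.2.2.1 p.2.2.2).1, Commute.one_right _⟩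
      left_inv := by
        intro t
        apply Subtype.ext
        show hf _ * ((hf _)⁻¹ * t.1 * hf _) * (hf _)⁻¹ = t.1
        group
      right_inv := by
        rintro ⟨u, t'⟩
        have hmid := conjFix_mid hss (hhf1 u) (hhf2 u) t'.2.1 t'.2.2
        have hkey : uf ⟨hf u * t'.1 * (hf u)⁻¹, hmid.1, Commute.one_right _⟩ = u.1 := by
          apply mid_unique hz hmid.1 (huf1 _) u.2.1
          exact (huf3 _).trans hmid.2.symm
        have hkey' : (⟨uf ⟨hf u * t'.1 * (hf u)⁻¹, hmid.1, Commute.one_right _⟩,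
            huf1 _, huf2 _⟩ : ConjFix z s) = u := Subtype.ext hkey
        apply Prod.ext
        · exact hkey'
        · apply Subtype.ext
          show (hf ⟨uf ⟨hf u * t'.1 * (hf u)⁻¹, hmid.1, Commute.one_right _⟩, huf1 _, huf2 _⟩)⁻¹ *
            (hf u * t'.1 * (hf u)⁻¹) *
            hf ⟨uf ⟨hf u * t'.1 * (hf u)⁻¹, hmid.1, Commute.one_right _⟩, huf1 _, huf2 _⟩ = t'.1
          rw [hkey']
          group }

theorem card_inv_eq_card_conjFix {z : G} (hz : Cfsg.IsIsolatedInvolution z) {r : G}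
    (hrz : Commute r z) :
    Nat.card {k : G // Odd (orderOf k) ∧ z * k * z⁻¹ = k⁻¹ ∧ Commute k r} =
      Nat.card (ConjFix z r) := by
  apply Nat.card_congr
  have hwd : ∀ k : {k : G // Odd (orderOf k) ∧ z * k * z⁻¹ = k⁻¹ ∧ Commute k r},
      Commute (k.1 * z * k.1⁻¹) r := by
    intro k
    have hk : Commute k.1 r := k.2.2.2
    exact (hk.mul_left hrz.symm).mul_left hk.inv_left
  refine Equiv.ofBijective (fun k => ⟨k.1 * z * k.1⁻¹, ⟨k.1, rfl⟩, hwd k⟩) ⟨?_, ?_⟩
  · intro k k' hkk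
    have h1 : k.1 * z * k.1⁻¹ = k'.1 * z * k'.1⁻¹ := congrArg Subtype.val hkk
    apply Subtype.ext
    have hu := Cfsg.Agent.S1185.result z hz k.1
    apply hu.unique
    · exact ⟨⟨k.2.1, k.2.2.1⟩, by rw [inv_mul_cancel]; exact Subgroup.one_mem _⟩
    · refine ⟨⟨k'.2.1, k'.2.2.1⟩, ?_⟩
      rw [Subgroup.mem_centralizer_iff]
      intro y hy
      rw [Set.mem_singleton_iff] at hy
      rw [hy]
      calc z * (k.1⁻¹ * k'.1) = k.1⁻¹ * (k.1 * z * k.1⁻¹) * k'.1 := by group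
        _ = k.1⁻¹ * (k'.1 * z * k'.1⁻¹) * k'.1 := by rw [h1]
        _ = (k.1⁻¹ * k'.1) * z := by group
  · rintro ⟨t, ⟨g, hg⟩, htr⟩
    have hu := Cfsg.Agent.S1185.result z hz g
    obtain ⟨k, ⟨hkodd, hkinv⟩, hkC⟩ := hu.exists
    have hkz : k * z * k⁻¹ = t := by
      have h1 := (Subgroup.mem_centralizer_iff.1 hkC) z (Set.mem_singleton z)
      rw [← hg]
      calc k * z * k⁻¹ = g * ((g⁻¹ * k) * z) * k⁻¹ := by group
        _ = g * (z * (g⁻¹ * k)) * k⁻¹ := by rw [h1]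
        _ = g * z * g⁻¹ := by group
    have hrz' : r⁻¹ * z * r = z := by
      have h2 : r * z = z * r := hrz
      calc r⁻¹ * z * r = r⁻¹ * (z * r) := by group
        _ = r⁻¹ * (r * z) := by rw [h2]
        _ = z := by group
    have h2 : r * k * r⁻¹ = k := by
      apply hu.unique _ ⟨⟨hkodd, hkinv⟩, hkC⟩
      refine ⟨⟨?_, ?_⟩, ?_⟩
      · have e : r * k * r⁻¹ = MulAut.conj r k := by simp [MulAut.conj_apply]
        rw [e, MulEquiv.orderOf_eq]; exact hkodd
      · have h3 : r * z = z * r := hrz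
        calc z * (r * k * r⁻¹) * z⁻¹ = (z * r) * k * (z * r)⁻¹ := by group
          _ = (r * z) * k * (r * z)⁻¹ := by rw [h3]
          _ = r * (z * k * z⁻¹) * r⁻¹ := by group
          _ = r * k⁻¹ * r⁻¹ := by rw [hkinv]
          _ = (r * k * r⁻¹)⁻¹ := by group
      · have htr' : t * r = r * t := htr
        have hm : (r * k * r⁻¹) * z * (r * k * r⁻¹)⁻¹ = g * z * g⁻¹ := by
          calc (r * k * r⁻¹) * z * (r * k * r⁻¹)⁻¹ = r * k * (r⁻¹ * z * r) * k⁻¹ * r⁻¹ := by group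
            _ = r * (k * z * k⁻¹) * r⁻¹ := by rw [hrz']; group
            _ = r * t * r⁻¹ := by rw [hkz]
            _ = (t * r) * r⁻¹ := by rw [htr']
            _ = g * z * g⁻¹ := by rw [hg]; group
        rw [Subgroup.mem_centralizer_iff]
        intro y hy
        rw [Set.mem_singleton_iff] at hy
        rw [hy]
        calc z * (g⁻¹ * (r * k * r⁻¹)) = g⁻¹ * (g * z * g⁻¹) * (r * k * r⁻¹) := by group
          _ = g⁻¹ * ((r * k * r⁻¹) * z * (r * k * r⁻¹)⁻¹) * (r * k * r⁻¹) := by rw [hm]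
          _ = (g⁻¹ * (r * k * r⁻¹)) * z := by group
    have hkr : Commute k r := by
      show k * r = r * k
      calc k * r = (r * k * r⁻¹) * r := by rw [h2]
        _ = r * k := by group
    exact ⟨⟨k, hkodd, hkinv, hkr⟩, Subtype.ext hkz⟩

theorem card_eq_card_centralizer_mul {z : G} (hz : Cfsg.IsIsolatedInvolution z) :
    Nat.card G = Nat.card ↥(Subgroup.centralizer ({z} : Set G)) *
      Nat.card {k : G // Odd (orderOf k) ∧ z * k * z⁻¹ = k⁻¹} := by
  rw [← Nat.card_prod]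
  apply Nat.card_congr
  have hex := fun g => (Cfsg.Agent.S1185.result z hz g).exists
  choose κ hκ using hex
  exact
    { toFun := fun g => (⟨(κ g)⁻¹ * g, by
          have h1 := Subgroup.inv_mem _ (hκ g).2
          simpa using h1⟩, ⟨κ g, (hκ g).1⟩)
      invFun := fun p => p.2.1 * p.1.1
      left_inv := by
        intro g
        show κ g * ((κ g)⁻¹ * g) = g
        group
      right_inv := by
        rintro ⟨c, k⟩
        have hk : κ (k.1 * c.1) = k.1 := by
          apply (Cfsg.Agent.S1185.result z hz (k.1 * c.1)).unique (hκ _)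
          refine ⟨k.2, ?_⟩
          have e : (k.1 * c.1)⁻¹ * k.1 = c.1⁻¹ := by group
          rw [e]; exact Subgroup.inv_mem _ c.2
        apply Prod.ext
        · apply Subtype.ext
          show (κ (k.1 * c.1))⁻¹ * (k.1 * c.1) = c.1
          rw [hk]; group
        · apply Subtype.ext
          exact hk }

/-- Bender's counting formula for an isolated involution. -/
theorem bender_formula {z : G} (hz : Cfsg.IsIsolatedInvolution z) {s : G} (hs : orderOf s = 2)
    (hsz : Commute s z) :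
    Nat.card G = Nat.card ↥(Subgroup.centralizer ({z} : Set G)) *
      Nat.card {k : G // Odd (orderOf k) ∧ z * k * z⁻¹ = k⁻¹ ∧ Commute k (s * z)} *
      Nat.card {k : G // Odd (orderOf k) ∧ z * k * z⁻¹ = k⁻¹ ∧ Commute k s} := by
  have hss : s * s = 1 := orderOf_two_mul_self hs
  have h1 := card_eq_card_centralizer_mul hz
  have h2 : Nat.card {k : G // Odd (orderOf k) ∧ z * k * z⁻¹ = k⁻¹} =
      Nat.card {k : G // Odd (orderOf k) ∧ z * k * z⁻¹ = k⁻¹ ∧ Commute k 1} := by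
    apply Nat.card_congr
    apply Equiv.subtypeEquivRight
    intro k
    constructor
    · intro h; exact ⟨h.1, h.2, Commute.one_right k⟩
    · intro h; exact ⟨h.1, h.2.1⟩
  have h3 := card_inv_eq_card_conjFix hz (Commute.one_left z)
  have h4 := card_conjFix_one hz hss hsz
  have h5 := card_inv_eq_card_conjFix hz hsz
  have h6 := card_inv_eq_card_conjFix hz (r := s * z) (hsz.mul_left (Commute.refl z))
  rw [h1, h2, h3, h4, h5, h6]
  ring

end bender

end Cfsg.Agent.Lib.Helper10
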