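import Mathlib
import Cfsg.Agent.Lib.Helper11.BG7b

set_option autoImplicit false

namespace Cfsg.Agent.Lib.Helper10

/-- The closure of two commuting elements killed by `p` is commutative and killed by `p`. -/
theorem cam_closure_pair {Q : Type*} [Group Q] (p : ℕ) (z e : Q) (hz : z ^ p = 1)
    (he : e ^ p = 1) (hc : z * e = e * z) :
    (∀ a ∈ Subgroup.closure ({z, e} : Set Q), ∀ b ∈ Subgroup.closure ({z, e} : Set Q),
      a * b = b * a) ∧
    (∀ a ∈ Subgroup.closure ({z, e} : Set Q), a ^ p = 1) := by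
  have h1 : Subgroup.closure ({z, e} : Set Q) ≤ Subgroup.centralizer ({z, e} : Set Q) := by
    rw [Subgroup.closure_le]
    intro x hx
    rw [SetLike.mem_coe, Subgroup.mem_centralizer_iff]
    intro y hy
    rcases hx with rfl | rfl
    · rcases hy with rfl | rfl
      · rfl
      · exact hc.symm
    · rcases hy with rfl | rfl
      · exact hc
      · rfl
  have hcomm : ∀ a ∈ Subgroup.closure ({z, e} : Set Q),
      ∀ b ∈ Subgroup.closure ({z, e} : Set Q), a * b = b * a := by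
    intro a ha b hb
    have h2 : Subgroup.closure ({z, e} : Set Q) ≤ Subgroup.centralizer ({b} : Set Q) := by
      rw [Subgroup.closure_le]
      intro x hx
      rw [SetLike.mem_coe, Subgroup.mem_centralizer_iff]
      intro y hy
      rw [Set.mem_singleton_iff] at hy
      rw [hy]
      exact ((Subgroup.mem_centralizer_iff.mp (h1 hb)) x hx).symm
    have h3 := (Subgroup.mem_centralizer_iff.mp (h2 ha)) b (Set.mem_singleton b)
    exact h3.symm
  refine ⟨hcomm, ?_⟩
  intro a ha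
  induction ha using Subgroup.closure_induction with
  | mem x hx =>
    rcases hx with rfl | rfl
    · exact hz
    · exact he
  | one => exact one_pow p
  | mul x y hx hy ihx ihy =>
    rw [(show Commute x y from hcomm x hx y hy).mul_pow, ihx, ihy, one_mul]
  | inv x hx ihx => rw [inv_pow, ihx, inv_one]

/-- Request #885 (P3) of helper26 for S4140 (Camina pairs). -/
theorem no_rank_two {G : Type*} [Group G] [Finite G] (p : ℕ) [Fact p.Prime] (N P0 : Subgroup G)
    [N.Normal] [P0.Normal] (hP0N : P0 ≤ N) (hP0 : IsPGroup p P0) (hcop : ¬ p ∣ P0.relIndex N)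
    (hne : P0 ≠ N)
    (hfix : ∀ u : G, u ∉ N → (∃ k : ℕ, orderOf u = p ^ k) → ∀ y ∈ N, u * y = y * u →
      ∃ k : ℕ, orderOf y = p ^ k)
    (z e : G ⧸ N) (hz : orderOf z = p) (he : orderOf e = p) (hc : z * e = e * z)
    (hze : e ∉ Subgroup.zpowers z) : False := by
  have hp : p.Prime := Fact.out
  obtain ⟨φ, hφmk⟩ : ∃ φ : G ⧸ P0 →* G ⧸ N,
      ∀ g : G, φ (QuotientGroup.mk' P0 g) = QuotientGroup.mk' N g :=
    ⟨QuotientGroup.map P0 N (MonoidHom.id G) (fun x hx => hP0N hx), fun g => rfl⟩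
  have hφs : Function.Surjective φ := by
    intro x
    obtain ⟨g, rfl⟩ := QuotientGroup.mk'_surjective N x
    exact ⟨QuotientGroup.mk' P0 g, hφmk g⟩
  obtain ⟨Nb, hNb⟩ : ∃ Nb : Subgroup (G ⧸ P0), Nb = N.map (QuotientGroup.mk' P0) := ⟨_, rfl⟩
  have hNbn : Nb.Normal := by
    rw [hNb]
    exact Subgroup.Normal.map inferInstance _ (QuotientGroup.mk'_surjective P0)
  have hmemNb : ∀ g : G, QuotientGroup.mk' P0 g ∈ Nb ↔ g ∈ N := by
    intro g
    rw [hNb, Subgroup.mem_map]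
    constructor
    · rintro ⟨n, hn, hng⟩
      have h1 : n⁻¹ * g ∈ P0 := QuotientGroup.eq.mp hng
      have h2 := N.mul_mem hn (hP0N h1)
      rwa [mul_inv_cancel_left] at h2
    · intro hg
      exact ⟨g, hg, rfl⟩
  have hker : ∀ x : G ⧸ P0, φ x = 1 → x ∈ Nb := by
    intro x hx
    obtain ⟨g, rfl⟩ := QuotientGroup.mk'_surjective P0 x
    rw [hmemNb]
    rw [hφmk] at hx
    exact (QuotientGroup.eq_one_iff g).mp hx
  have hNb1 : Nb ≠ ⊥ := by
    intro h
    apply hne
    apply le_antisymm hP0N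
    intro n hn
    have h1 : QuotientGroup.mk' P0 n ∈ Nb := (hmemNb n).mpr hn
    rw [h, Subgroup.mem_bot] at h1
    exact (QuotientGroup.eq_one_iff n).mp h1
  have hNbcard : Nat.card Nb = P0.relIndex N := by
    have h1 := Subgroup.index_ker ((QuotientGroup.mk' P0).comp N.subtype)
    have h2 : ((QuotientGroup.mk' P0).comp N.subtype).ker = P0.subgroupOf N := by
      ext x
      rw [MonoidHom.mem_ker, Subgroup.mem_subgroupOf]
      exact QuotientGroup.eq_one_iff (x : G)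
    have h3 : ((QuotientGroup.mk' P0).comp N.subtype).range = Nb := by
      rw [hNb, MonoidHom.range_comp, Subgroup.range_subtype]
    rw [h2, h3] at h1
    exact h1.symm
  have hzp : z ^ p = 1 := by rw [← hz]; exact pow_orderOf_eq_one z
  have hep : e ^ p = 1 := by rw [← he]; exact pow_orderOf_eq_one e
  obtain ⟨hVc, hVp⟩ := cam_closure_pair p z e hzp hep hc
  have hVpg : IsPGroup p (Subgroup.closure ({z, e} : Set (G ⧸ N))) := by
    intro x
    refine ⟨1, ?_⟩
    rw [pow_one]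
    exact Subtype.ext (hVp x x.2)
  obtain ⟨T, hT⟩ := hVpg.exists_le_sylow
  obtain ⟨Sb, hSb⟩ := Sylow.mapSurjective_surjective hφs p T
  have hSbmap : (Sb : Subgroup (G ⧸ P0)).map φ = (T : Subgroup (G ⧸ N)) := by
    rw [← hSb]; rfl
  obtain ⟨E, hE⟩ : ∃ E : Subgroup (G ⧸ P0), E = (Sb : Subgroup (G ⧸ P0)) ⊓
      (Subgroup.closure ({z, e} : Set (G ⧸ N))).comap φ := ⟨_, rfl⟩
  have hEpg : IsPGroup p E := by
    rw [hE]; exact Sb.isPGroup'.to_le inf_le_left
  have hEφ : ∀ x ∈ E, φ x ∈ Subgroup.closure ({z, e} : Set (G ⧸ N)) := by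
    intro x hx
    rw [hE] at hx
    exact hx.2
  have hlift : ∀ c ∈ Subgroup.closure ({z, e} : Set (G ⧸ N)), ∃ x ∈ E, φ x = c := by
    intro c hc'
    have h1 : c ∈ (Sb : Subgroup (G ⧸ P0)).map φ := by rw [hSbmap]; exact hT hc'
    obtain ⟨x, hx, rfl⟩ := h1
    exact ⟨x, by rw [hE]; exact ⟨hx, hc'⟩, rfl⟩
  have hcopE : (Nat.card E).Coprime (Nat.card Nb) := by
    obtain ⟨a, ha⟩ := hEpg.exists_card_eq
    rw [ha, hNbcard]
    exact Nat.Coprime.pow_left a ((Nat.Prime.coprime_iff_not_dvd hp).mpr hcop)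
  have hinj : ∀ x ∈ E, φ x = 1 → x = 1 := by
    intro x hx hφx
    have h1 : x ∈ Nb := hker x hφx
    have h2 : orderOf x ∣ Nat.card E := by
      have h := orderOf_dvd_natCard (⟨x, hx⟩ : E)
      rwa [Subgroup.orderOf_mk] at h
    have h3 : orderOf x ∣ Nat.card Nb := by
      have h := orderOf_dvd_natCard (⟨x, h1⟩ : Nb)
      rwa [Subgroup.orderOf_mk] at h
    have h4 : orderOf x = 1 := Nat.eq_one_of_dvd_coprimes hcopE h2 h3
    exact orderOf_eq_one_iff.mp h4
  have hinj2 : ∀ x ∈ E, ∀ y ∈ E, φ x = φ y → x = y := by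
    intro x hx y hy h
    have h1 := hinj (x * y⁻¹) (E.mul_mem hx (E.inv_mem hy))
      (by rw [map_mul, map_inv, h, mul_inv_cancel])
    exact mul_inv_eq_one.mp h1
  have hEc : IsMulCommutative E := by
    apply Cfsg.Agent.Lib.Helper11.imc_of_sub_comm
    intro a ha b hb
    apply hinj2 _ (E.mul_mem ha hb) _ (E.mul_mem hb ha)
    rw [map_mul, map_mul]
    exact hVc _ (hEφ a ha) _ (hEφ b hb)
  have hEp : ∀ x ∈ E, x ^ p = 1 := by
    intro x hx
    apply hinj _ (E.pow_mem hx p)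
    rw [map_pow]
    exact hVp _ (hEφ x hx)
  obtain ⟨zh, hzhE, hzh⟩ := hlift z (Subgroup.subset_closure (Set.mem_insert z {e}))
  obtain ⟨eh, hehE, heh⟩ := hlift e
    (Subgroup.subset_closure (Set.mem_insert_of_mem z (Set.mem_singleton e)))
  have hplt : p < Nat.card E := by
    have hzh1 : zh ≠ 1 := by
      intro h
      rw [h, map_one] at hzh
      rw [← hzh, orderOf_one] at hz
      exact hp.one_lt.ne hz
    have hord : orderOf zh = p := orderOf_eq_prime (hEp zh hzhE) hzh1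
    have hle : Subgroup.zpowers zh ≤ E := (Subgroup.zpowers_le).mpr hzhE
    have hlt : Subgroup.zpowers zh < E := by
      refine lt_of_le_of_ne hle ?_
      intro h
      apply hze
      have h1 : eh ∈ Subgroup.zpowers zh := by rw [h]; exact hehE
      obtain ⟨i, hi⟩ := Subgroup.mem_zpowers_iff.mp h1
      rw [← heh, ← hi, map_zpow, hzh]
      exact Subgroup.zpow_mem_zpowers z i
    have hcl : Nat.card (Subgroup.zpowers zh) < Nat.card E := by
      by_contra hcon
      exact hlt.ne (Subgroup.eq_of_le_of_card_ge hlt.le (not_lt.mp hcon))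
    rw [Nat.card_zpowers, hord] at hcl
    exact hcl
  have hEQ : E ≤ Subgroup.normalizer (Nb : Set (G ⧸ P0)) := by
    rw [Subgroup.normalizer_eq_top_iff.mpr hNbn]; exact le_top
  obtain ⟨b, hbE, hb1, hQb⟩ :=
    Cfsg.Agent.Lib.Helper11.exists_elt_centralizer_ne_bot p Nb E hEc hEQ hEp hcopE hplt hNb1
  obtain ⟨yb, hyb⟩ := (Subgroup.ne_bot_iff_exists_ne_one).mp hQb
  have hybN : (yb : G ⧸ P0) ∈ Nb := yb.2.1
  have hybC : (yb : G ⧸ P0) ∈ Subgroup.centralizer ({b} : Set (G ⧸ P0)) := yb.2.2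
  have hyb1 : (yb : G ⧸ P0) ≠ 1 := fun h => hyb (Subtype.ext h)
  have hcomm_b : b * (yb : G ⧸ P0) = (yb : G ⧸ P0) * b :=
    (Subgroup.mem_centralizer_iff.mp hybC) b (Set.mem_singleton b)
  have hord1 : orderOf (yb : G ⧸ P0) ≠ 1 := fun h => hyb1 (orderOf_eq_one_iff.mp h)
  obtain ⟨r, hr, hrdvd⟩ := Nat.exists_prime_and_dvd hord1
  have hrp : r ≠ p := by
    intro h
    apply hcop
    rw [← hNbcard, ← h]
    have h1 := orderOf_dvd_natCard (⟨(yb : G ⧸ P0), hybN⟩ : Nb)
    rw [Subgroup.orderOf_mk] at h1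
    exact hrdvd.trans h1
  have hord0 : orderOf (yb : G ⧸ P0) ≠ 0 := (orderOf_pos _).ne'
  obtain ⟨yr, hyr⟩ : ∃ yr : G ⧸ P0, yr = (yb : G ⧸ P0) ^ (orderOf (yb : G ⧸ P0) / r) :=
    ⟨_, rfl⟩
  have hyrord : orderOf yr = r := by rw [hyr]; exact orderOf_pow_orderOf_div hord0 hrdvd
  have hyrN : yr ∈ Nb := by rw [hyr]; exact Nb.pow_mem hybN _
  have hyrb : Commute b yr := by
    rw [hyr]; exact (show Commute b (yb : G ⧸ P0) from hcomm_b).pow_right _
  obtain ⟨y0, hy0⟩ := QuotientGroup.mk'_surjective P0 yr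
  have hy0N : y0 ∈ N := (hmemNb y0).mp (by rw [hy0]; exact hyrN)
  have hy0ord : orderOf y0 ≠ 0 := (orderOf_pos y0).ne'
  obtain ⟨c, t, hrt, hct⟩ := Nat.exists_eq_pow_mul_and_not_dvd hy0ord r hr.ne_one
  obtain ⟨y1, hy1⟩ : ∃ y1 : G, y1 = y0 ^ t := ⟨_, rfl⟩
  have hy1N : y1 ∈ N := by rw [hy1]; exact N.pow_mem hy0N t
  have hy1pow : y1 ^ (r ^ c) = 1 := by
    rw [hy1, ← pow_mul, mul_comm, ← hct]; exact pow_orderOf_eq_one y0
  have hy1img : QuotientGroup.mk' P0 y1 = yr ^ t := by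
    rw [hy1, map_pow, hy0]
  have hy1ne : QuotientGroup.mk' P0 y1 ≠ 1 := by
    intro h
    rw [hy1img] at h
    have h2 := orderOf_dvd_of_pow_eq_one h
    rw [hyrord] at h2
    exact hrt h2
  have hy1b : Commute b (QuotientGroup.mk' P0 y1) := by
    rw [hy1img]; exact hyrb.pow_right _
  have hstab : ∀ (y : Subgroup.zpowers y1) (u : {u : G // QuotientGroup.mk' P0 u = b}),
      QuotientGroup.mk' P0 ((y : G) * u.1 * (y : G)⁻¹) = b := by
    intro y u
    obtain ⟨i, hi⟩ := Subgroup.mem_zpowers_iff.mp y.2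
    rw [map_mul, map_mul, map_inv, u.2, ← hi, map_zpow]
    have h3 : Commute ((QuotientGroup.mk' P0 y1) ^ i) b := (hy1b.symm.zpow_left i)
    rw [h3.eq, mul_inv_cancel_right]
  letI act : MulAction (Subgroup.zpowers y1) {u : G // QuotientGroup.mk' P0 u = b} :=
    { smul := fun y u => ⟨(y : G) * u.1 * (y : G)⁻¹, hstab y u⟩
      one_smul := fun u => Subtype.ext (by
        show (1 : G) * u.1 * (1 : G)⁻¹ = u.1
        rw [one_mul, inv_one, mul_one])
      mul_smul := fun y y' u => Subtype.ext (by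
        show ((y : G) * (y' : G)) * u.1 * ((y : G) * (y' : G))⁻¹ =
          (y : G) * ((y' : G) * u.1 * (y' : G)⁻¹) * (y : G)⁻¹
        group) }
  haveI : Fact r.Prime := ⟨hr⟩
  have hZr : IsPGroup r (Subgroup.zpowers y1) := by
    intro y
    obtain ⟨i, hi⟩ := Subgroup.mem_zpowers_iff.mp y.2
    refine ⟨c, Subtype.ext ?_⟩
    show (y : G) ^ (r ^ c) = 1
    rw [← hi, ← zpow_natCast, ← zpow_mul, mul_comm, zpow_mul, zpow_natCast, hy1pow, one_zpow]
  obtain ⟨b0, hb0⟩ := QuotientGroup.mk'_surjective P0 b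
  have hcardF : Nat.card {u : G // QuotientGroup.mk' P0 u = b} = Nat.card P0 := by
    apply Nat.card_congr
    exact
      { toFun := fun u => ⟨b0⁻¹ * u.1, by
          have h : QuotientGroup.mk' P0 b0 = QuotientGroup.mk' P0 u.1 := by rw [hb0, u.2]
          exact QuotientGroup.eq.mp h⟩
        invFun := fun x => ⟨b0 * x.1, by
          rw [← hb0]
          exact QuotientGroup.eq.mpr (by
            rw [mul_inv_rev, inv_mul_cancel_right]; exact P0.inv_mem x.2)⟩
        left_inv := fun u => Subtype.ext (mul_inv_cancel_left b0 u.1)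
        right_inv := fun x => Subtype.ext (inv_mul_cancel_left b0 x.1) }
  have hnd : ¬ r ∣ Nat.card {u : G // QuotientGroup.mk' P0 u = b} := by
    rw [hcardF]
    obtain ⟨a, ha⟩ := hP0.exists_card_eq
    rw [ha]
    intro h
    exact hrp ((Nat.prime_dvd_prime_iff_eq hr hp).mp (hr.dvd_of_dvd_pow h))
  obtain ⟨u, hu⟩ := hZr.nonempty_fixed_point_of_prime_not_dvd_card _ hnd
  have h1 := MulAction.mem_fixedPoints.mp hu ⟨y1, Subgroup.mem_zpowers y1⟩
  have h2 : y1 * u.1 * y1⁻¹ = u.1 := congrArg Subtype.val h1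
  have hcomm : u.1 * y1 = y1 * u.1 := by
    have h3 := congrArg (fun w => w * y1) h2
    simp only [inv_mul_cancel_right] at h3
    exact h3.symm
  have huN : u.1 ∉ N := by
    intro h
    have h5 : φ b = 1 := by
      rw [← u.2, hφmk]; exact (QuotientGroup.eq_one_iff u.1).mpr h
    exact hb1 (hinj b hbE h5)
  have hup : ∃ k : ℕ, orderOf u.1 = p ^ k := by
    have h6 : u.1 ^ p ∈ P0 := by
      apply (QuotientGroup.eq_one_iff (u.1 ^ p)).mp
      have h : QuotientGroup.mk' P0 (u.1 ^ p) = 1 := by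
        rw [map_pow, u.2]; exact hEp b hbE
      exact h
    obtain ⟨j, hj⟩ := hP0 ⟨u.1 ^ p, h6⟩
    have h7 : u.1 ^ (p ^ (j + 1)) = 1 := by
      have h := congrArg Subtype.val hj
      rw [pow_succ, mul_comm, pow_mul]; exact h
    obtain ⟨k, -, hk⟩ := (Nat.dvd_prime_pow hp).mp (orderOf_dvd_of_pow_eq_one h7)
    exact ⟨k, hk⟩
  obtain ⟨k', hk'⟩ := hfix u.1 huN hup y1 hy1N hcomm
  obtain ⟨i, -, hi⟩ := (Nat.dvd_prime_pow hr).mp (orderOf_dvd_of_pow_eq_one hy1pow)
  have hk0 : orderOf y1 = 1 := by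
    by_contra hne1
    have hk1 : k' ≠ 0 := by
      rintro rfl
      rw [pow_zero] at hk'
      exact hne1 hk'
    have h8 : p ∣ r ^ i := by rw [← hi, hk']; exact dvd_pow_self p hk1
    exact hrp ((Nat.prime_dvd_prime_iff_eq hp hr).mp (hp.dvd_of_dvd_pow h8)).symm
  apply hy1ne
  rw [orderOf_eq_one_iff.mp hk0, map_one]

end Cfsg.Agent.Lib.Helper10
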