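import Cfsg.Agent.Lib.Helper10.SolvBal
import Cfsg.Agent.Lib.Helper22.CyclicIndexTwo
import Cfsg.Agent.S1324

set_option autoImplicit false
open Cfsg
open Pointwise

namespace Cfsg.Agent.Lib.Helper10

open scoped commutatorElement

universe u

section qcore

variable {G : Type u} [Group G] [Finite G] (q : ℕ) [hq : Fact q.Prime]

theorem pPrimePCore_normal' : (Cfsg.pPrimePCore q G).Normal := by
  unfold Cfsg.pPrimePCore
  have h1 := Cfsg.Agent.Lib.Helper1.pCore_normal (G := G ⧸ Cfsg.pPrimeCore q G) q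
  exact Subgroup.Normal.comap h1 _

theorem pPrimePCore_char (φ : G ≃* G) {c : G} (hc : c ∈ Cfsg.pPrimePCore q G) :
    φ c ∈ Cfsg.pPrimePCore q G := by
  have hN : ((Cfsg.pPrimePCore q G).map φ.toMonoidHom).Normal :=
    Subgroup.Normal.map (pPrimePCore_normal' q) φ.toMonoidHom φ.surjective
  have hNπ : (((Cfsg.pPrimePCore q G).map φ.toMonoidHom).map
      (QuotientGroup.mk' (Cfsg.pPrimeCore q G))).Normal :=
    Subgroup.Normal.map hN _ (QuotientGroup.mk'_surjective _)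
  have hp : IsPGroup q ↥(((Cfsg.pPrimePCore q G).map φ.toMonoidHom).map
      (QuotientGroup.mk' (Cfsg.pPrimeCore q G))) := by
    rintro ⟨_, ⟨_, ⟨d, hd, rfl⟩, rfl⟩⟩
    have hd' : QuotientGroup.mk' (Cfsg.pPrimeCore q G) d ∈
        Cfsg.pCore q (G ⧸ Cfsg.pPrimeCore q G) := hd
    obtain ⟨k, hk⟩ := (Cfsg.Agent.Lib.Helper1.pCore_isPGroup q) ⟨_, hd'⟩
    refine ⟨k, ?_⟩
    apply Subtype.ext
    have h1 : d ^ (q ^ k) ∈ Cfsg.pPrimeCore q G := by
      have h0 := congrArg Subtype.val hk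
      simp only [Subgroup.coe_pow, Subgroup.coe_one] at h0
      rw [← map_pow] at h0
      exact (QuotientGroup.eq_one_iff _).1 h0
    have h2 : φ.toMonoidHom (d ^ (q ^ k)) ∈ Cfsg.pPrimeCore q G :=
      Cfsg.Agent.Lib.Helper11.pPrimeCore_map_mulEquiv_le q φ ⟨_, h1, rfl⟩
    show (QuotientGroup.mk' (Cfsg.pPrimeCore q G) (φ.toMonoidHom d)) ^ (q ^ k) = 1
    rw [← map_pow, ← map_pow]
    exact (QuotientGroup.eq_one_iff _).2 h2
  have h3 : ((Cfsg.pPrimePCore q G).map φ.toMonoidHom).map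
      (QuotientGroup.mk' (Cfsg.pPrimeCore q G)) ≤ Cfsg.pCore q (G ⧸ Cfsg.pPrimeCore q G) :=
    le_sSup ⟨hNπ, hp⟩
  have h4 := h3 ⟨φ.toMonoidHom c, ⟨c, hc, rfl⟩, rfl⟩
  exact h4

end qcore

section qcore2

variable {H : Type u} [Group H] [Finite H]

theorem normalizer_le_normalizer_pPrimePCore (q : ℕ) [Fact q.Prime] (K : Subgroup H) :
    Subgroup.normalizer (K : Set H) ≤
      Subgroup.normalizer (((Cfsg.pPrimePCore q ↥K).map K.subtype : Subgroup H) : Set H) := by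
  apply le_normalizer_of_conj_mem
  rintro g hg _ ⟨c, hc, rfl⟩
  exact ⟨Cfsg.Agent.Lib.Helper22.normalizerConjHom K ⟨g, hg⟩ c, pPrimePCore_char q _ hc, rfl⟩

theorem exists_hyperplane {p : ℕ} [Fact p.Prime] {A : Subgroup H}
    (hA : Cfsg.IsElementaryAbelian p A) (hA2 : p ^ 2 ≤ Nat.card ↥A) :
    ∃ B : Subgroup H, B ≤ A ∧ B.relIndex A = p := by
  have hp : p.Prime := Fact.out
  obtain ⟨n, hn⟩ := IsPGroup.iff_card.mp (isPGroup_of_elemAb hA)
  have hn1 : 1 ≤ n := by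
    rcases Nat.eq_zero_or_pos n with h0 | h0
    · rw [h0, pow_zero] at hn
      rw [hn] at hA2
      have := hp.one_lt
      nlinarith
    · exact h0
  obtain ⟨K0, hK0⟩ := Sylow.exists_subgroup_card_pow_prime (G := ↥A) p (n := n - 1)
    (by rw [hn]; exact pow_dvd_pow p (Nat.sub_le n 1))
  refine ⟨K0.map A.subtype, map_subtype_le' K0, ?_⟩
  have h1 := Cfsg.Agent.Lib.Helper21.card_mul_relIndex (map_subtype_le' K0)
  rw [Subgroup.card_map_of_injective (Subgroup.subtype_injective A), hK0, hn] at h1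
  have h2 : p ^ n = p ^ (n - 1) * p := by
    rw [← pow_succ]; congr 1; omega
  rw [h2] at h1
  exact Nat.eq_of_mul_eq_mul_left (pow_pos hp.pos _) h1

/-- `S1288`: a `q'`-subgroup `U` whose commutators with all hyperplane centralizers are
`q'`-groups lies in `O_{q'}(K)`. -/
theorem le_qcore_of_comm (p : ℕ) [Fact p.Prime] (A K : Subgroup H)
    (hA : Cfsg.IsElementaryAbelian p A) (hA2 : p ^ 2 ≤ Nat.card ↥A) (hK : ¬ p ∣ Nat.card ↥K)
    (hKs : Group.IsSolvable ↥K) (hAK : A ≤ Subgroup.normalizer (K : Set H)) (q : ℕ)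
    [hq : Fact q.Prime] (U : Subgroup H) (hU : U ≤ K) (hUq : ¬ q ∣ Nat.card ↥U)
    (hcomm : ∀ B : Subgroup H, B ≤ A → B.relIndex A = p →
      ¬ q ∣ Nat.card ↥⁅U, K ⊓ Subgroup.centralizer (B : Set H)⁆) :
    U ≤ (Cfsg.pPrimeCore q ↥K).map K.subtype := by
  have hp : p.Prime := Fact.out
  obtain ⟨π, hπ⟩ : ∃ π : ↥K →* ↥K ⧸ Cfsg.pPrimeCore q ↥K,
      π = QuotientGroup.mk' (Cfsg.pPrimeCore q ↥K) := ⟨_, rfl⟩
  have hker : ∀ g : ↥K, π g = 1 ↔ g ∈ Cfsg.pPrimeCore q ↥K := by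
    intro g
    rw [hπ, QuotientGroup.mk'_apply, QuotientGroup.eq_one_iff]
  have hπs : Function.Surjective π := by rw [hπ]; exact QuotientGroup.mk'_surjective _
  have hsolvQ : Group.IsSolvable (↥K ⧸ Cfsg.pPrimeCore q ↥K) :=
    Group.isSolvable_of_surjective hπs
  have hOQ := Cfsg.Agent.Lib.Helper20.pPrimeCore_quot_eq_bot (G := ↥K) q
  have hcent := Cfsg.Agent.Lib.Helper20.centralizer_pCore_le q hOQ
  have hQp : IsPGroup q ↥(Cfsg.pCore q (↥K ⧸ Cfsg.pPrimeCore q ↥K)) :=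
    Cfsg.Agent.Lib.Helper1.pCore_isPGroup q
  have hQn : (Cfsg.pCore q (↥K ⧸ Cfsg.pPrimeCore q ↥K)).Normal :=
    Cfsg.Agent.Lib.Helper1.pCore_normal q
  have hmemQ : ∀ c : ↥K, c ∈ Cfsg.pPrimePCore q ↥K ↔
      π c ∈ Cfsg.pCore q (↥K ⧸ Cfsg.pPrimeCore q ↥K) := by
    intro c
    rw [hπ]
    rfl
  obtain ⟨Q1, hQ1⟩ : ∃ Q1 : Subgroup H, Q1 = (Cfsg.pPrimePCore q ↥K).map K.subtype := ⟨_, rfl⟩
  have hQ1K : Q1 ≤ K := by rw [hQ1]; exact map_subtype_le' _
  have hAQ1 : A ≤ Subgroup.normalizer (Q1 : Set H) := by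
    rw [hQ1]; exact hAK.trans (normalizer_le_normalizer_pPrimePCore q K)
  have hQ1p : ¬ p ∣ Nat.card ↥Q1 := fun h => hK (h.trans (Subgroup.card_dvd_of_le hQ1K))
  have hgen := Cfsg.Agent.S1324.result p A Q1 hA hA2 hQ1p hAQ1
  obtain ⟨B0, hB0A, hB0⟩ := exists_hyperplane hA hA2
  have key : ∀ w : ↥K, π w ∈ Cfsg.pCore q (↥K ⧸ Cfsg.pPrimeCore q ↥K) →
      ∀ W : Subgroup H, (w : H) ∈ W → ¬ q ∣ Nat.card ↥W → π w = 1 := by
    intro w hw W hwW hW
    obtain ⟨k, hk⟩ := hQp ⟨_, hw⟩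
    have hk' : (π w) ^ (q ^ k) = 1 := by
      have h0 := congrArg Subtype.val hk
      simpa using h0
    have hd1 : orderOf (π w) ∣ q ^ k := orderOf_dvd_of_pow_eq_one hk'
    have hd2 : orderOf (π w) ∣ Nat.card ↥W := by
      refine (orderOf_map_dvd π w).trans ?_
      rw [← Subgroup.orderOf_coe]
      exact Subgroup.orderOf_dvd_natCard _ hwW
    have hc : (Nat.card ↥W).Coprime (q ^ k) :=
      Nat.Coprime.pow_right k ((Nat.Prime.coprime_iff_not_dvd hq.out).2 hW).symm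
    exact orderOf_eq_one_iff.1 (Nat.Coprime.eq_one_of_dvd (Nat.Coprime.coprime_dvd_left hd2 hc) hd1)
  intro u hu
  have hcu : π ⟨u, hU hu⟩ ∈
      Subgroup.centralizer ((Cfsg.pCore q (↥K ⧸ Cfsg.pPrimeCore q ↥K) : Subgroup _) : Set _) := by
    rw [Subgroup.mem_centralizer_iff]
    intro cbar hcbar
    obtain ⟨c', rfl⟩ := hπs cbar
    have hc'Q1 : (c' : H) ∈ Q1 := by
      rw [hQ1]; exact ⟨c', (hmemQ c').2 hcbar, rfl⟩
    have hT : Q1 ≤ ((Subgroup.centralizer ({π ⟨u, hU hu⟩} : Set _)).comap π).map K.subtype := by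
      refine hgen.le.trans (iSup_le ?_)
      rintro ⟨B, hBA, hBp⟩
      intro c hc
      have hcQ1 : c ∈ Q1 := hc.1
      have hcB : c ∈ Subgroup.centralizer (B : Set H) := hc.2
      have hcK : c ∈ K := hQ1K hcQ1
      obtain ⟨B', hB'A, hB'p, hB'B⟩ : ∃ B' : Subgroup H, B' ≤ A ∧ B'.relIndex A = p ∧ B' ≤ B := by
        obtain ⟨n, hn⟩ := IsPGroup.iff_card.mp (isPGroup_of_elemAb hA)
        have hdvd : B.relIndex A ∣ p ^ n := hn ▸ Subgroup.relIndex_dvd_card B A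
        obtain ⟨j, _, hj⟩ := (Nat.dvd_prime_pow hp).1 hdvd
        have hj1 : j ≤ 1 := by
          by_contra hcon
          have h2 : 2 ≤ j := by omega
          have h3 : p ^ 2 ≤ p ^ j := Nat.pow_le_pow_right hp.pos h2
          have h4 : p < p ^ 2 := by
            have := hp.one_lt
            nlinarith
          have hBp' : B.relIndex A ≤ p := hBp
          rw [hj] at hBp'
          omega
        rcases Nat.le_one_iff_eq_zero_or_eq_one.1 hj1 with h0 | h1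
        · rw [h0, pow_zero] at hj
          exact ⟨B0, hB0A, hB0, hB0A.trans (Subgroup.relIndex_eq_one.1 hj)⟩
        · rw [h1, pow_one] at hj
          exact ⟨B, hBA, hj, le_rfl⟩
      have hcB' : c ∈ Subgroup.centralizer (B' : Set H) := Subgroup.centralizer_le hB'B hcB
      have hwmem : ⁅u, c⁆ ∈ ⁅U, K ⊓ Subgroup.centralizer (B' : Set H)⁆ :=
        Subgroup.commutator_mem_commutator hu ⟨hcK, hcB'⟩
      have hcπ : π ⟨c, hcK⟩ ∈ Cfsg.pCore q (↥K ⧸ Cfsg.pPrimeCore q ↥K) := by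
        rw [hQ1] at hcQ1
        obtain ⟨c0, hc0, hc0c⟩ := hcQ1
        have : c0 = ⟨c, hcK⟩ := Subtype.ext hc0c
        rw [← this]
        exact (hmemQ c0).1 hc0
      have hwπ : π ⁅(⟨u, hU hu⟩ : ↥K), (⟨c, hcK⟩ : ↥K)⁆ ∈
          Cfsg.pCore q (↥K ⧸ Cfsg.pPrimeCore q ↥K) := by
        rw [map_commutatorElement, commutatorElement_def]
        exact Subgroup.mul_mem _ (hQn.conj_mem _ hcπ _) (Subgroup.inv_mem _ hcπ)
      have h1 := key ⁅(⟨u, hU hu⟩ : ↥K), (⟨c, hcK⟩ : ↥K)⁆ hwπ _ hwmem (hcomm B' hB'A hB'p)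
      rw [map_commutatorElement, commutatorElement_eq_one_iff_mul_comm] at h1
      refine ⟨⟨c, hcK⟩, ?_, rfl⟩
      show π ⟨c, hcK⟩ ∈ Subgroup.centralizer ({π ⟨u, hU hu⟩} : Set _)
      rw [Subgroup.mem_centralizer_iff]
      intro z hz
      rw [Set.mem_singleton_iff] at hz
      rw [hz]
      exact h1
    obtain ⟨c'', hc'', hcc⟩ := hT hc'Q1
    have hceq : c'' = c' := Subtype.ext hcc
    rw [hceq] at hc''
    have h2 := (Subgroup.mem_centralizer_iff.1 (Subgroup.mem_comap.1 hc'')) (π ⟨u, hU hu⟩)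
      (Set.mem_singleton _)
    exact h2.symm
  have h3 := key ⟨u, hU hu⟩ (hcent hcu) U hu hUq
  exact ⟨⟨u, hU hu⟩, (hker _).1 h3, rfl⟩

end qcore2

end Cfsg.Agent.Lib.Helper10
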