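import Cfsg.Agent.Lib.Helper10.LBal4
import Cfsg.Agent.Lib.Helper18.Coprime
import Cfsg.Agent.Lib.Helper20.SolvCore

set_option autoImplicit false
open Cfsg
open Pointwise

namespace Cfsg.Agent.Lib.Helper10

open scoped commutatorElement

universe u

section solvbal

variable {G : Type u} [Group G] [Finite G] (p : ℕ) [hp : Fact p.Prime]

theorem solvable_cpc_eq_bot [Group.IsSolvable G] (hO : Cfsg.pPrimeCore p G = ⊥) {x : G}
    (hx : orderOf x = p) : Cfsg.centralizerPPrimeCore p x = ⊥ := by
  have h1 := cpc_le_centralizer_pCore p hx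
  have h2 := h1.trans (Cfsg.Agent.Lib.Helper20.centralizer_pCore_le p hO)
  have hXp : IsPGroup p ↥(Cfsg.centralizerPPrimeCore p x) :=
    (Cfsg.Agent.Lib.Helper1.pCore_isPGroup p).to_le h2
  apply eq_bot_of_isPGroup_of_not_dvd hXp
  intro hdvd
  have h3 := Nat.Coprime.eq_one_of_dvd (cpc_coprime p x).symm hdvd
  exact (Fact.out : p.Prime).one_lt.ne' h3

/-- In a finite solvable group, `O_{p'}(C_G(x)) ≤ O_{p'}(G)` for `x` of order `p`. -/
theorem solvable_cpc_le [Group.IsSolvable G] {x : G} (hx : orderOf x = p) :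
    Cfsg.centralizerPPrimeCore p x ≤ Cfsg.pPrimeCore p G := by
  obtain ⟨π, hπ⟩ : ∃ π : G →* G ⧸ Cfsg.pPrimeCore p G,
      π = QuotientGroup.mk' (Cfsg.pPrimeCore p G) := ⟨_, rfl⟩
  have hker : ∀ g : G, π g = 1 ↔ g ∈ Cfsg.pPrimeCore p G := by
    intro g
    rw [hπ, QuotientGroup.mk'_apply, QuotientGroup.eq_one_iff]
  have hπs : Function.Surjective π := by rw [hπ]; exact QuotientGroup.mk'_surjective _
  have hOcop : (Nat.card ↥(Cfsg.pPrimeCore p G)).Coprime p :=
    Cfsg.Agent.Lib.Helper14.pPrimeCore_coprime p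
  have hOndvd : ¬ p ∣ Nat.card ↥(Cfsg.pPrimeCore p G) := by
    intro hdvd
    exact (Fact.out : p.Prime).one_lt.ne' (Nat.Coprime.eq_one_of_dvd hOcop.symm hdvd)
  have hxO : x ∉ Cfsg.pPrimeCore p G := by
    intro hxO
    have h1 := Subgroup.orderOf_dvd_natCard _ hxO
    rw [hx] at h1
    exact hOndvd h1
  have hxbar : orderOf (π x) = p := by
    apply orderOf_eq_prime
    · have h1 : x ^ p = 1 := by rw [← hx]; exact pow_orderOf_eq_one x
      rw [← map_pow, h1, map_one]
    · intro h
      exact hxO ((hker x).1 h)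
  have hsolvQ : Group.IsSolvable (G ⧸ Cfsg.pPrimeCore p G) :=
    Group.isSolvable_of_surjective hπs
  have hQ := solvable_cpc_eq_bot p (Cfsg.Agent.Lib.Helper20.pPrimeCore_quot_eq_bot p) hxbar
  have hlift : ∀ q ∈ Subgroup.centralizer ({π x} : Set (G ⧸ Cfsg.pPrimeCore p G)),
      ∃ g ∈ Subgroup.centralizer ({x} : Set G), π g = q := by
    intro q hq
    obtain ⟨w, rfl⟩ := hπs q
    have hw : ∀ y ∈ Subgroup.zpowers x, w⁻¹ * y * w * y⁻¹ ∈ Cfsg.pPrimeCore p G := by
      intro y hy
      apply (hker _).1
      have hy' : π y ∈ Subgroup.zpowers (π x) := by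
        obtain ⟨k, rfl⟩ := hy
        exact ⟨k, by rw [map_zpow]⟩
      have h1 := mem_centralizer_zpowers hq (π y) hy'
      rw [map_mul, map_mul, map_mul, map_inv, map_inv, mul_assoc (π w)⁻¹, h1]
      group
    obtain ⟨m, hm, hfix⟩ := Cfsg.Agent.Lib.Helper18.exists_fixed_in_coset
      (isPGroup_zpowers_of_orderOf p hx) hOndvd
      (by rw [Subgroup.normalizer_eq_top (Cfsg.pPrimeCore p G)]; exact le_top) hw
    refine ⟨w * m, ?_, ?_⟩
    · rw [Subgroup.mem_centralizer_iff]
      intro z hz
      rw [Set.mem_singleton_iff] at hz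
      rw [hz]
      exact hfix x (Subgroup.mem_zpowers x)
    · rw [map_mul, (hker m).2 hm, mul_one]
  have hXbar : (Cfsg.centralizerPPrimeCore p x).map π ≤ Cfsg.centralizerPPrimeCore p (π x) := by
    have hgoal : (Cfsg.centralizerPPrimeCore p x).map π ≤
        (Cfsg.pPrimeCore p ↥(Subgroup.centralizer ({π x} : Set (G ⧸ Cfsg.pPrimeCore p G)))).map
          (Subgroup.centralizer ({π x} : Set (G ⧸ Cfsg.pPrimeCore p G))).subtype := by
      apply le_core_of_chain p (D := Subgroup.centralizer ({π x} : Set (G ⧸ Cfsg.pPrimeCore p G)))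
      · rintro _ ⟨u, hu, rfl⟩
        rw [Subgroup.mem_centralizer_iff]
        intro z hz
        rw [Set.mem_singleton_iff] at hz
        rw [hz, ← map_mul, ← map_mul]
        congr 1
        exact (Subgroup.mem_centralizer_iff.1 (cpc_le_centralizer p x hu)) x (Set.mem_singleton x)
      · exact le_rfl
      · apply le_normalizer_of_conj_mem
        rintro q hq _ ⟨u, hu, rfl⟩
        obtain ⟨g, hg, rfl⟩ := hlift q hq
        exact ⟨g * u * g⁻¹, core_conj_mem p hu hg, by simp⟩
      · exact Subgroup.le_normalizer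
      · exact Nat.Coprime.coprime_dvd_left (Subgroup.card_map_dvd _ π) (cpc_coprime p x)
    exact hgoal
  intro u hu
  have h1 := hXbar (Subgroup.mem_map_of_mem π hu)
  rw [hQ] at h1
  exact (hker u).1 (Subgroup.mem_bot.1 h1)

/-- Solvable balance. -/
theorem solvable_balance {a b : G} (hb : Group.IsSolvable ↥(Subgroup.centralizer ({b} : Set G)))
    (ha : orderOf a = p) (hab : a * b = b * a) :
    Cfsg.centralizerPPrimeCore p a ⊓ Subgroup.centralizer ({b} : Set G) ≤
      Cfsg.centralizerPPrimeCore p b := by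
  haveI := hb
  have haC : a ∈ Subgroup.centralizer ({b} : Set G) := by
    rw [Subgroup.mem_centralizer_iff]
    intro z hz
    rw [Set.mem_singleton_iff] at hz
    rw [hz]; exact hab.symm
  have ha' : orderOf (⟨a, haC⟩ : ↥(Subgroup.centralizer ({b} : Set G))) = p := by
    rw [← ha]
    exact (Subgroup.orderOf_coe (⟨a, haC⟩ : ↥(Subgroup.centralizer ({b} : Set G)))).symm
  have hSB := solvable_cpc_le p ha'
  have hY : (Cfsg.centralizerPPrimeCore p a).subgroupOf (Subgroup.centralizer ({b} : Set G)) ≤
      Cfsg.centralizerPPrimeCore p (⟨a, haC⟩ : ↥(Subgroup.centralizer ({b} : Set G))) := by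
    have hgoal : (Cfsg.centralizerPPrimeCore p a).subgroupOf (Subgroup.centralizer ({b} : Set G)) ≤
        (Cfsg.pPrimeCore p ↥(Subgroup.centralizer
          ({(⟨a, haC⟩ : ↥(Subgroup.centralizer ({b} : Set G)))} : Set _))).map
          (Subgroup.centralizer
            ({(⟨a, haC⟩ : ↥(Subgroup.centralizer ({b} : Set G)))} : Set _)).subtype := by
      have hle : (Cfsg.centralizerPPrimeCore p a).subgroupOf (Subgroup.centralizer ({b} : Set G)) ≤
          Subgroup.centralizer
            ({(⟨a, haC⟩ : ↥(Subgroup.centralizer ({b} : Set G)))} : Set _) := by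
        intro u hu
        rw [Subgroup.mem_centralizer_iff]
        intro z hz
        rw [Set.mem_singleton_iff] at hz
        rw [hz]
        apply Subtype.ext
        exact (Subgroup.mem_centralizer_iff.1
          (cpc_le_centralizer p a (Subgroup.mem_subgroupOf.1 hu))) a (Set.mem_singleton a)
      apply le_core_of_chain p (D := Subgroup.centralizer
            ({(⟨a, haC⟩ : ↥(Subgroup.centralizer ({b} : Set G)))} : Set _)) hle le_rfl
      · apply le_normalizer_of_conj_mem
        intro c hc u hu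
        rw [Subgroup.mem_subgroupOf] at hu ⊢
        have hcC : (c : G) ∈ Subgroup.centralizer ({a} : Set G) := by
          rw [Subgroup.mem_centralizer_iff]
          intro z hz
          rw [Set.mem_singleton_iff] at hz
          rw [hz]
          have h1 := (Subgroup.mem_centralizer_iff.1 hc) _ (Set.mem_singleton _)
          exact congrArg Subtype.val h1
        exact core_conj_mem p hu hcC
      · exact Subgroup.le_normalizer
      · have h1 : Nat.card ↥(((Cfsg.centralizerPPrimeCore p a).subgroupOf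
            (Subgroup.centralizer ({b} : Set G))).map
            (Subgroup.centralizer ({b} : Set G)).subtype) =
            Nat.card ↥((Cfsg.centralizerPPrimeCore p a).subgroupOf
              (Subgroup.centralizer ({b} : Set G))) :=
          Subgroup.card_map_of_injective (Subgroup.subtype_injective _)
        rw [← h1, Subgroup.subgroupOf_map_subtype]
        exact Nat.Coprime.coprime_dvd_left (Subgroup.card_dvd_of_le inf_le_left) (cpc_coprime p a)
    exact hgoal
  intro u hu
  have h1 : (⟨u, hu.2⟩ : ↥(Subgroup.centralizer ({b} : Set G))) ∈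
      (Cfsg.centralizerPPrimeCore p a).subgroupOf (Subgroup.centralizer ({b} : Set G)) :=
    Subgroup.mem_subgroupOf.2 hu.1
  exact ⟨⟨u, hu.2⟩, hSB (hY h1), rfl⟩

end solvbal

end Cfsg.Agent.Lib.Helper10
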