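import Mathlib
import Cfsg.Prelude.Def_Involutions
import Cfsg.Agent.Lib.Helper10.Basic
import Cfsg.Agent.Lib.Helper10.Invol

set_option autoImplicit false

namespace Cfsg.Agent.Lib.Helper10

variable {G : Type*} [Group G]

/-- An element of order two in terms of its square. -/
theorem orderOf_eq_two_of {w : G} (h1 : w * w = 1) (h2 : w ≠ 1) : orderOf w = 2 := by
  haveI : Fact (Nat.Prime 2) := ⟨Nat.prime_two⟩
  exact orderOf_eq_prime (by rw [pow_two]; exact h1) h2

/-- Conjugates of involutions are involutions. -/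
theorem orderOf_conj_two {t : G} (ht : orderOf t = 2) (g : G) : orderOf (g * t * g⁻¹) = 2 := by
  have : g * t * g⁻¹ = MulAut.conj g t := by simp
  rw [this, MulEquiv.orderOf_eq]; exact ht

/-- Dihedral lemma: if the product of two involutions has even order, some involution commutes
with both. -/
theorem invol_exists_central {x y : G} (hx : x * x = 1) (hy : y * y = 1)
    (he : Even (orderOf (x * y))) (hpos : 0 < orderOf (x * y)) :
    ∃ u : G, orderOf u = 2 ∧ x * u = u * x ∧ y * u = u * y := by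
  obtain ⟨m, hm⟩ := he
  have hm0 : 0 < m := by omega
  have hu1 : (x * y) ^ m ≠ 1 := pow_ne_one_of_lt_orderOf (by omega) (by omega)
  have huu : (x * y) ^ m * (x * y) ^ m = 1 := by
    rw [← pow_add, ← hm]; exact pow_orderOf_eq_one _
  refine ⟨(x * y) ^ m, orderOf_eq_two_of huu hu1, ?_, ?_⟩
  · have h1 := invol_pow_semiconj hx hy m
    rw [h1, inv_eq_of_mul_eq_one_left huu]
  · have h1 := invol_pow_semiconj' hx hy m
    rw [h1, inv_eq_of_mul_eq_one_left huu]

section se

variable [Finite G] {H : Subgroup G}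

/-- A strongly embedded subgroup controls fusion of its involutions. -/
theorem se_mem_of_conj (hH : Cfsg.IsStronglyEmbedded H) {t g : G} (ht : orderOf t = 2)
    (htH : t ∈ H) (hg : g * t * g⁻¹ ∈ H) : g ∈ H := by
  by_contra hgH
  have hgH' : g⁻¹ ∉ H := fun h => hgH (by simpa using H.inv_mem h)
  have hodd := hH.2.2 g⁻¹ hgH'
  have hmem : t ∈ H ⊓ H.map (MulAut.conj g⁻¹).toMonoidHom := by
    refine Subgroup.mem_inf.2 ⟨htH, ?_⟩
    rw [mem_map_conj_iff]
    simpa using hg
  have hdvd := Subgroup.orderOf_dvd_natCard _ hmem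
  rw [ht] at hdvd
  rw [Nat.odd_iff] at hodd
  omega

theorem se_mem_of_conj' (hH : Cfsg.IsStronglyEmbedded H) {t g : G} (ht : orderOf t = 2)
    (htH : t ∈ H) (hg : g⁻¹ * t * g ∈ H) : g ∈ H := by
  have := se_mem_of_conj hH (g := g⁻¹) ht htH (by simpa using hg)
  simpa using H.inv_mem this

theorem se_centralizer_le (hH : Cfsg.IsStronglyEmbedded H) {t : G} (ht : orderOf t = 2)
    (htH : t ∈ H) : Subgroup.centralizer ({t} : Set G) ≤ H := by
  intro g hg
  rw [Subgroup.mem_centralizer_iff] at hg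
  have h1 := hg t (Set.mem_singleton t)
  apply se_mem_of_conj hH ht htH
  rw [← h1, mul_inv_cancel_right]; exact htH

theorem se_exists_invol (hH : Cfsg.IsStronglyEmbedded H) : ∃ t ∈ H, orderOf t = 2 := by
  haveI : Fact (Nat.Prime 2) := ⟨Nat.prime_two⟩
  obtain ⟨x, hx⟩ := exists_prime_orderOf_dvd_card' 2 (even_iff_two_dvd.1 hH.2.1)
  exact ⟨x.1, x.2, by rw [Subgroup.orderOf_coe]; exact hx⟩

theorem se_exists_invol_not_mem (hH : Cfsg.IsStronglyEmbedded H) : ∃ u : G, orderOf u = 2 ∧ u ∉ H := by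
  obtain ⟨t, htH, ht⟩ := se_exists_invol hH
  have : ∃ g : G, g ∉ H := by
    by_contra h
    push Not at h
    exact hH.1 ((Subgroup.eq_top_iff' H).2 h)
  obtain ⟨g, hg⟩ := this
  exact ⟨g * t * g⁻¹, orderOf_conj_two ht g, fun h => hg (se_mem_of_conj hH ht htH h)⟩

/-- The product of an involution outside `H` and one inside `H` has odd order. -/
theorem se_odd_mul (hH : Cfsg.IsStronglyEmbedded H) {v t : G} (hv : orderOf v = 2) (hvH : v ∉ H)
    (ht : orderOf t = 2) (htH : t ∈ H) : Odd (orderOf (v * t)) := by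
  by_contra hodd
  rw [Nat.not_odd_iff_even] at hodd
  obtain ⟨u, hu, hvu, htu⟩ := invol_exists_central (orderOf_two_mul_self hv) (orderOf_two_mul_self ht)
    hodd (orderOf_pos _)
  have huH : u ∈ H := by
    apply se_centralizer_le hH ht htH
    rw [Subgroup.mem_centralizer_iff]
    intro y hy
    rw [Set.mem_singleton_iff] at hy
    rw [hy]; exact htu
  apply hvH
  apply se_centralizer_le hH hu huH
  rw [Subgroup.mem_centralizer_iff]
  intro y hy
  rw [Set.mem_singleton_iff] at hy
  rw [hy]; exact hvu.symm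

/-- An involution outside `H` and one inside `H` are interchanged by an involution. -/
theorem se_exists_swap (hH : Cfsg.IsStronglyEmbedded H) {v t : G} (hv : orderOf v = 2) (hvH : v ∉ H)
    (ht : orderOf t = 2) (htH : t ∈ H) : ∃ w : G, orderOf w = 2 ∧ w * v * w = t := by
  obtain ⟨e, he⟩ := se_odd_mul hH hv hvH ht htH
  have hvv := orderOf_two_mul_self hv
  have htt := orderOf_two_mul_self ht
  have h1 := invol_pow_semiconj hvv htt (e + 1)
  have hpow : (v * t) ^ (e + 1) * (v * t) ^ (e + 1) = v * t := by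
    rw [← pow_add, show e + 1 + (e + 1) = (2 * e + 1) + 1 by ring, pow_succ, ← he, pow_orderOf_eq_one,
      one_mul]
  have hconj : v * (v * t) ^ (e + 1) * v * (v * (v * t) ^ (e + 1)) = t := by
    calc v * (v * t) ^ (e + 1) * v * (v * (v * t) ^ (e + 1))
        = v * (v * t) ^ (e + 1) * (v * v) * (v * t) ^ (e + 1) := by simp only [mul_assoc]
      _ = v * ((v * t) ^ (e + 1) * (v * t) ^ (e + 1)) := by rw [hvv, mul_one, mul_assoc]
      _ = t := by rw [hpow, ← mul_assoc, hvv, one_mul]
  have hww : v * (v * t) ^ (e + 1) * (v * (v * t) ^ (e + 1)) = 1 := by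
    calc v * (v * t) ^ (e + 1) * (v * (v * t) ^ (e + 1))
        = ((v * t) ^ (e + 1))⁻¹ * v * (v * (v * t) ^ (e + 1)) := by rw [h1]
      _ = ((v * t) ^ (e + 1))⁻¹ * (v * v) * (v * t) ^ (e + 1) := by simp only [mul_assoc]
      _ = 1 := by rw [hvv, mul_one, inv_mul_cancel]
  refine ⟨v * (v * t) ^ (e + 1), orderOf_eq_two_of hww ?_, hconj⟩
  intro h
  rw [h, one_mul, mul_one] at hconj
  rw [hconj] at hvH
  exact hvH htH

/-- Every involution is conjugate into a strongly embedded subgroup. -/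
theorem se_conj_into (hH : Cfsg.IsStronglyEmbedded H) {v : G} (hv : orderOf v = 2) :
    ∃ g : G, g * v * g⁻¹ ∈ H := by
  by_cases hvH : v ∈ H
  · exact ⟨1, by simpa using hvH⟩
  · obtain ⟨t, htH, ht⟩ := se_exists_invol hH
    obtain ⟨w, hw, hwv⟩ := se_exists_swap hH hv hvH ht htH
    refine ⟨w, ?_⟩
    rw [orderOf_two_inv hw, hwv]; exact htH

/-- Any two involutions of `H` are conjugate under `H ∩ uHu⁻¹`, `u` an involution outside `H`. -/
theorem se_conj_D (hH : Cfsg.IsStronglyEmbedded H) {u s t : G} (hu : orderOf u = 2) (huH : u ∉ H)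
    (hs : orderOf s = 2) (hsH : s ∈ H) (ht : orderOf t = 2) (htH : t ∈ H) :
    ∃ d ∈ H ⊓ H.map (MulAut.conj u).toMonoidHom, d * s * d⁻¹ = t := by
  have hui := orderOf_two_inv hu
  have huu := orderOf_two_mul_self hu
  have hv : orderOf (u * s * u⁻¹) = 2 := orderOf_conj_two hs u
  have hvH : u * s * u⁻¹ ∉ H := fun h => huH (se_mem_of_conj hH hs hsH h)
  obtain ⟨w, hw, hwv⟩ := se_exists_swap hH hv hvH ht htH
  have hwi := orderOf_two_inv hw
  have hconj : (w * u) * s * (w * u)⁻¹ = t := by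
    rw [← hwv, mul_inv_rev, hwi]; simp only [mul_assoc]
  have hdH : w * u ∈ H := se_mem_of_conj hH hs hsH (by rw [hconj]; exact htH)
  refine ⟨w * u, Subgroup.mem_inf.2 ⟨hdH, ?_⟩, hconj⟩
  rw [mem_map_conj_iff]
  have : u⁻¹ * (w * u) * u = (w * u)⁻¹ := by
    rw [mul_inv_rev, hwi, hui, mul_assoc, mul_assoc, huu, mul_one]
  rw [this]; exact H.inv_mem hdH

/-- All involutions are conjugate when a strongly embedded subgroup exists. -/
theorem se_all_conj (hH : Cfsg.IsStronglyEmbedded H) {a b : G} (ha : orderOf a = 2) (hb : orderOf b = 2) :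
    IsConj a b := by
  obtain ⟨u, hu, huH⟩ := se_exists_invol_not_mem hH
  obtain ⟨g, hg⟩ := se_conj_into hH ha
  obtain ⟨g', hg'⟩ := se_conj_into hH hb
  obtain ⟨d, -, hd⟩ := se_conj_D hH hu huH (orderOf_conj_two ha g) hg (orderOf_conj_two hb g') hg'
  rw [isConj_iff]
  refine ⟨g'⁻¹ * d * g, ?_⟩
  have : g'⁻¹ * d * g * a * (g'⁻¹ * d * g)⁻¹ = g'⁻¹ * (d * (g * a * g⁻¹) * d⁻¹) * g' := by group
  rw [this, hd]; group

/-! ### The action on cosets -/

theorem smul_mk_eq_iff (H : Subgroup G) (i a b : G) :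
    i • (QuotientGroup.mk a : G ⧸ H) = QuotientGroup.mk b ↔ (i * a)⁻¹ * b ∈ H := by
  rw [MulAction.Quotient.smul_mk, QuotientGroup.eq, smul_eq_mul]

theorem se_fix_unique (hH : Cfsg.IsStronglyEmbedded H) {i : G} (hi : orderOf i = 2) {x y : G ⧸ H}
    (hx : i • x = x) (hy : i • y = y) : x = y := by
  induction x using QuotientGroup.induction_on with
  | H a =>
    induction y using QuotientGroup.induction_on with
    | H b =>
      rw [smul_mk_eq_iff] at hx hy
      rw [QuotientGroup.eq]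
      have hii := orderOf_two_inv hi
      have h1 : a⁻¹ * i * a ∈ H := by
        have := H.inv_mem hx
        have e : ((i * a)⁻¹ * a)⁻¹ = a⁻¹ * i * a := by group
        rw [e] at this; exact this
      have h2 : b⁻¹ * i * b ∈ H := by
        have := H.inv_mem hy
        have e : ((i * b)⁻¹ * b)⁻¹ = b⁻¹ * i * b := by group
        rw [e] at this; exact this
      have h3 : orderOf (a⁻¹ * i * a) = 2 := by
        have := orderOf_conj_two hi a⁻¹
        rwa [inv_inv] at this
      apply se_mem_of_conj' hH h3 h1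
      have e : (a⁻¹ * b)⁻¹ * (a⁻¹ * i * a) * (a⁻¹ * b) = b⁻¹ * i * b := by group
      rw [e]; exact h2

theorem se_fix_exists (hH : Cfsg.IsStronglyEmbedded H) {i : G} (hi : orderOf i = 2) :
    ∃ x : G ⧸ H, i • x = x := by
  obtain ⟨g, hg⟩ := se_conj_into hH hi
  refine ⟨QuotientGroup.mk g⁻¹, ?_⟩
  rw [smul_mk_eq_iff]
  have e : (i * g⁻¹)⁻¹ * g⁻¹ = (g * i * g⁻¹)⁻¹ := by group
  rw [e]; exact H.inv_mem hg

/-- Involutions fixing a coset correspond to involutions of `H`. -/
theorem se_card_fix (H : Subgroup G) (x : G ⧸ H) :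
    Nat.card {i : G // orderOf i = 2 ∧ i • x = x} = Nat.card {t : G // orderOf t = 2 ∧ t ∈ H} := by
  induction x using QuotientGroup.induction_on with
  | H a =>
    apply Nat.card_congr
    refine Equiv.subtypeEquiv (MulAut.conj a⁻¹).toEquiv ?_
    intro i
    have e1 : (MulAut.conj a⁻¹).toEquiv i = a⁻¹ * i * a := by simp
    rw [e1, smul_mk_eq_iff]
    have e2 : orderOf (a⁻¹ * i * a) = orderOf i := by
      have : a⁻¹ * i * a = MulAut.conj a⁻¹ i := by simp
      rw [this, MulEquiv.orderOf_eq]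
    rw [e2]
    have e3 : (i * a)⁻¹ * a = (a⁻¹ * i * a)⁻¹ := by group
    rw [e3, inv_mem_iff]

/-- Lower bound for the number of involutions moving one coset to another. -/
theorem se_card_ge (hH : Cfsg.IsStronglyEmbedded H) (x y : G ⧸ H) (hxy : x ≠ y) :
    Nat.card {t : G // orderOf t = 2 ∧ t ∈ H} ≤ Nat.card {i : G // orderOf i = 2 ∧ i • x = y} := by
  induction x using QuotientGroup.induction_on with
  | H a =>
    induction y using QuotientGroup.induction_on with
    | H b =>
      have hg : a⁻¹ * b ∉ H := fun h => hxy (QuotientGroup.eq.2 h)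
      obtain ⟨t₀, ht₀H, ht₀⟩ := se_exists_invol hH
      have hv : orderOf ((a⁻¹ * b) * t₀ * (a⁻¹ * b)⁻¹) = 2 := orderOf_conj_two ht₀ _
      have hvH : (a⁻¹ * b) * t₀ * (a⁻¹ * b)⁻¹ ∉ H := fun h => hg (se_mem_of_conj hH ht₀ ht₀H h)
      have key : ∀ t : {t : G // orderOf t = 2 ∧ t ∈ H}, ∃ w : G, orderOf w = 2 ∧
          w * ((a⁻¹ * b) * t₀ * (a⁻¹ * b)⁻¹) * w = t.1 := fun t => se_exists_swap hH hv hvH t.2.1 t.2.2
      choose w hw1 hw2 using key
      have hmap : ∀ t : {t : G // orderOf t = 2 ∧ t ∈ H},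
          orderOf (a * w t * a⁻¹) = 2 ∧ (a * w t * a⁻¹) • (QuotientGroup.mk a : G ⧸ H) = QuotientGroup.mk b := by
        intro t
        refine ⟨orderOf_conj_two (hw1 t) a, ?_⟩
        rw [smul_mk_eq_iff]
        have hwi := orderOf_two_inv (hw1 t)
        have hc : (w t * (a⁻¹ * b)) * t₀ * (w t * (a⁻¹ * b))⁻¹ = t.1 := by
          rw [← hw2 t, mul_inv_rev, hwi]; simp only [mul_assoc]
        have hcH : w t * (a⁻¹ * b) ∈ H := se_mem_of_conj hH ht₀ ht₀H (by rw [hc]; exact t.2.2)
        have e : (a * w t * a⁻¹ * a)⁻¹ * b = (w t)⁻¹ * (a⁻¹ * b) := by group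
        rw [e, hwi]; exact hcH
      apply Nat.card_le_card_of_injective (fun t => (⟨a * w t * a⁻¹, hmap t⟩ : {i : G // orderOf i = 2 ∧ i • (QuotientGroup.mk a : G ⧸ H) = QuotientGroup.mk b}))
      intro t t' htt'
      have h1 : a * w t * a⁻¹ = a * w t' * a⁻¹ := congrArg Subtype.val htt'
      have h2 : w t = w t' := by
        have := congrArg (fun z => a⁻¹ * z * a) h1
        simpa [mul_assoc] using this
      apply Subtype.ext
      rw [← hw2 t, ← hw2 t', h2]

theorem card_eq_sum_fiber {I X : Type*} [Finite I] [Fintype X] (φ : I → X) :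
    Nat.card I = ∑ x, Nat.card {i : I // φ i = x} := by
  rw [← Nat.card_sigma]
  exact Nat.card_congr (Equiv.sigmaFiberEquiv φ).symm

/-- The number of involutions moving a coset `x` to a different coset `y` is the number of
involutions of the strongly embedded subgroup `H`. -/
theorem se_card_swap (hH : Cfsg.IsStronglyEmbedded H) (x y : G ⧸ H) (hxy : x ≠ y) :
    Nat.card {i : G // orderOf i = 2 ∧ i • x = y} = Nat.card {t : G // orderOf t = 2 ∧ t ∈ H} := by
  classical
  haveI : Fintype (G ⧸ H) := Fintype.ofFinite _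
  have h1 : Nat.card {i : G // orderOf i = 2} = ∑ y : G ⧸ H, Nat.card {i : G // orderOf i = 2 ∧ i • x = y} := by
    rw [card_eq_sum_fiber (fun i : {i : G // orderOf i = 2} => i.1 • x)]
    refine Finset.sum_congr rfl fun y _ => ?_
    exact Nat.card_congr (Equiv.subtypeSubtypeEquivSubtypeInter (fun i : G => orderOf i = 2) (fun i : G => i • x = y))
  have hfix : ∀ i : {i : G // orderOf i = 2}, ∃ z : G ⧸ H, i.1 • z = z := fun i => se_fix_exists hH i.2
  choose φ hφ using hfix
  have h2 : Nat.card {i : G // orderOf i = 2} = ∑ y : G ⧸ H, Nat.card {i : G // orderOf i = 2 ∧ i • y = y} := by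
    rw [card_eq_sum_fiber φ]
    refine Finset.sum_congr rfl fun y _ => ?_
    refine Nat.card_congr ((Equiv.subtypeEquivRight ?_).trans
      (Equiv.subtypeSubtypeEquivSubtypeInter (fun i : G => orderOf i = 2) (fun i : G => i • y = y)))
    intro i
    constructor
    · intro h; rw [← h]; exact hφ i
    · intro h; exact se_fix_unique hH i.2 (hφ i) h
  have h3 : ∑ y : G ⧸ H, Nat.card {t : G // orderOf t = 2 ∧ t ∈ H} = ∑ y : G ⧸ H, Nat.card {i : G // orderOf i = 2 ∧ i • x = y} := by
    rw [← h1, h2]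
    refine Finset.sum_congr rfl fun y _ => ?_
    rw [se_card_fix]
  have hle : ∀ y ∈ (Finset.univ : Finset (G ⧸ H)), Nat.card {t : G // orderOf t = 2 ∧ t ∈ H} ≤ Nat.card {i : G // orderOf i = 2 ∧ i • x = y} := by
    intro y _
    by_cases hy : x = y
    · subst hy; rw [se_card_fix]
    · exact se_card_ge hH x y hy
  exact ((Finset.sum_eq_sum_iff_of_le hle).1 h3 y (Finset.mem_univ y)).symm

/-- If `H ∩ uHu⁻¹` is no larger than the number of involutions of `H`, then the involution `u`
inverts it elementwise. -/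
theorem se_inverts (hH : Cfsg.IsStronglyEmbedded H) {u : G} (hu : orderOf u = 2) (huH : u ∉ H)
    (hcard : Nat.card ↥(H ⊓ H.map (MulAut.conj u).toMonoidHom) ≤ Nat.card {t : G // orderOf t = 2 ∧ t ∈ H}) :
    ∀ d ∈ H ⊓ H.map (MulAut.conj u).toMonoidHom, u * d * u⁻¹ = d⁻¹ := by
  have hui := orderOf_two_inv hu
  have huu := orderOf_two_mul_self hu
  have hne : (QuotientGroup.mk 1 : G ⧸ H) ≠ QuotientGroup.mk u := by
    intro h
    rw [QuotientGroup.eq] at h
    apply huH
    simpa using h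
  have hc := se_card_swap hH _ _ hne
  have hmem : ∀ i : {i : G // orderOf i = 2 ∧ i • (QuotientGroup.mk 1 : G ⧸ H) = QuotientGroup.mk u},
      u * i.1 ∈ H ⊓ H.map (MulAut.conj u).toMonoidHom := by
    intro i
    have h1 := i.2.2
    rw [smul_mk_eq_iff] at h1
    have hii := orderOf_two_inv i.2.1
    have h2 : i.1 * u ∈ H := by
      have e : (i.1 * 1)⁻¹ * u = i.1 * u := by rw [mul_one, hii]
      rw [e] at h1; exact h1
    have h3 : u * i.1 ∈ H := by
      have := H.inv_mem h2
      rw [mul_inv_rev, hui, hii] at this; exact this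
    refine Subgroup.mem_inf.2 ⟨h3, ?_⟩
    rw [mem_map_conj_iff]
    have e : u⁻¹ * (u * i.1) * u = i.1 * u := by group
    rw [e]; exact h2
  have hinj : Function.Injective (fun i : {i : G // orderOf i = 2 ∧ i • (QuotientGroup.mk 1 : G ⧸ H) = QuotientGroup.mk u} =>
      (⟨u * i.1, hmem i⟩ : ↥(H ⊓ H.map (MulAut.conj u).toMonoidHom))) := by
    intro i i' h
    have h1 : u * i.1 = u * i'.1 := congrArg Subtype.val h
    exact Subtype.ext (mul_left_cancel h1)
  have hbij := hinj.bijective_of_nat_card_le (by rw [hc]; exact hcard)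
  intro d hd
  obtain ⟨i, hi⟩ := hbij.2 ⟨d, hd⟩
  have h1 : u * i.1 = d := congrArg Subtype.val hi
  have hii := orderOf_two_inv i.2.1
  rw [← h1, mul_inv_rev, hui, hii, mul_assoc, mul_assoc, ← mul_assoc u u, huu, one_mul]

end se

end Cfsg.Agent.Lib.Helper10
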