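import Mathlib
import Cfsg.Agent.Lib.Helper10.Wr3

set_option autoImplicit false

namespace Cfsg.Agent.Lib.Helper10.Wr

open Cfsg.Agent.Lib.Helper10.QD (mu mu_add_mu neg_mu mu_ne_zero two_mul_eq_zero_iff)

section GrpC

variable {S : Type*} [Group S] {n : ℕ} {x y z : S}

theorem sq_mem_base (d : Data S n x y z) (g : S) : g * g ∈ base d := by
  rcases cases d g with ⟨a, b, rfl⟩ | ⟨a, b, rfl⟩
  · rw [el_mul d]; exact el_mem_base d _ _
  · rw [elz_sq d]; exact el_mem_base d _ _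

theorem central_mem_base (d : Data S n x y z) (v : S) (hv : ∀ s : S, s * v = v * s) :
    v ∈ base d := by
  rcases cases d v with ⟨a, b, rfl⟩ | ⟨a, b, rfl⟩
  · exact el_mem_base d _ _
  · exfalso
    have h1 := hv (el n x y 1 0)
    rw [el_mul_elz d, elz_mul_el d, elz_inj d] at h1
    exact one_ne_zero' d (by linear_combination h1.1)

theorem central_invol (d : Data S n x y z) (v : S) (hv : ∀ s : S, s * v = v * s)
    (hv2 : v * v = 1) (hv1 : v ≠ 1) : v = el n x y (mu n) (mu n) := by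
  rcases cases d v with ⟨a, b, rfl⟩ | ⟨a, b, rfl⟩
  · have h1 := hv z
    rw [z_mul_el d, elz_inj d] at h1
    have hab : a = b := h1.2
    subst hab
    rcases (el_invol_iff d a a).mp hv2 with ⟨h | h, _⟩
    · exfalso; apply hv1; rw [h]; exact el_zero
    · rw [h]
  · exfalso
    have h1 := hv (el n x y 1 0)
    rw [el_mul_elz d, elz_mul_el d, elz_inj d] at h1
    exact one_ne_zero' d (by linear_combination h1.1)

theorem invol_base (d : Data S n x y z) (e : S) (he : e ∈ base d) (he2 : e * e = 1) :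
    e = 1 ∨ e = el n x y (mu n) 0 ∨ e = el n x y (mu n) (mu n) ∨
      e = el n x y (mu n) 0 * el n x y (mu n) (mu n) := by
  have hn1 : 1 ≤ n := by have := d.hn; omega
  obtain ⟨a, b, rfl⟩ := he
  rcases (el_invol_iff d a b).mp he2 with ⟨rfl | rfl, rfl | rfl⟩
  · left; exact el_zero
  · right; right; right
    rw [el_mul d, mu_add_mu n hn1, zero_add]
  · right; left; rfl
  · right; right; left; rfl

theorem cent_invol_base (d : Data S n x y z) (τ : S) (hτ : τ ∈ base d) (hτ2 : τ * τ = 1)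
    (hτ1 : τ ≠ 1) (hτz : τ ≠ el n x y (mu n) (mu n)) (s : S) (hs : s * τ = τ * s) :
    s ∈ base d := by
  obtain ⟨a, b, rfl⟩ := hτ
  rcases cases d s with ⟨c, e, rfl⟩ | ⟨c, e, rfl⟩
  · exact el_mem_base d _ _
  · exfalso
    rw [elz_mul_el d, el_mul_elz d, elz_inj d] at hs
    have hab : a = b := by linear_combination -hs.1
    subst hab
    rcases (el_invol_iff d a a).mp hτ2 with ⟨h | h, _⟩
    · exact hτ1 (by rw [h]; exact el_zero)
    · exact hτz (by rw [h])

theorem cent_invol_out (d : Data S n x y z) (τ : S) (hτ : τ ∉ base d) (hτ2 : τ * τ = 1)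
    (s₁ s₂ : S) (h1 : s₁ * τ = τ * s₁) (h2 : s₂ * τ = τ * s₂) : s₁ * s₂ = s₂ * s₁ := by
  rcases cases d τ with ⟨a, b, rfl⟩ | ⟨a, b, rfl⟩
  · exact absurd (el_mem_base d a b) hτ
  have hb : b = -a := (elz_invol_iff d a b).mp hτ2
  subst hb
  have key : ∀ s : S, s * (el n x y a (-a) * z) = el n x y a (-a) * z * s →
      (∃ c, s = el n x y c c) ∨ (∃ e, s = el n x y (e + 2 * a) e * z) := by
    intro s hs
    rcases cases d s with ⟨c, e, rfl⟩ | ⟨c, e, rfl⟩
    · left
      rw [el_mul_elz d, elz_mul_el d, elz_inj d] at hs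
      exact ⟨c, by rw [show e = c by linear_combination -hs.1]⟩
    · right
      rw [elz_mul_elz d, elz_mul_elz d, el_inj d] at hs
      exact ⟨e, by rw [show c = e + 2 * a by linear_combination hs.1]⟩
  rcases key s₁ h1 with ⟨c, rfl⟩ | ⟨e, rfl⟩ <;> rcases key s₂ h2 with ⟨c', rfl⟩ | ⟨e', rfl⟩
  · exact el_comm d _ _ _ _
  · rw [el_mul_elz d, elz_mul_el d]; congr 2 <;> ring
  · rw [el_mul_elz d, elz_mul_el d]; congr 2 <;> ring
  · rw [elz_mul_elz d, elz_mul_elz d]; congr 1 <;> ring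

theorem invol_out_conj (d : Data S n x y z) (τ₁ τ₂ : S) (h1 : τ₁ ∉ base d) (h2 : τ₂ ∉ base d)
    (h12 : τ₁ * τ₁ = 1) (h22 : τ₂ * τ₂ = 1) : ∃ s : S, s * τ₁ * s⁻¹ = τ₂ := by
  rcases cases d τ₁ with ⟨a, b, rfl⟩ | ⟨a, b, rfl⟩
  · exact absurd (el_mem_base d a b) h1
  rcases cases d τ₂ with ⟨c, e, rfl⟩ | ⟨c, e, rfl⟩
  · exact absurd (el_mem_base d c e) h2
  have hb : b = -a := (elz_invol_iff d a b).mp h12
  have he : e = -c := (elz_invol_iff d c e).mp h22
  subst hb; subst he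
  refine ⟨el n x y (c - a) 0, ?_⟩
  rw [conj_el_elz d]
  congr 2 <;> ring

end GrpC

end Cfsg.Agent.Lib.Helper10.Wr
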